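import Cfsg.Agent.H417.TorMain

/-!
# Self-centralizing cyclic tori, second factor not central (helper417)

* `near_multi` : the integer lemma for several vectors
* `col_inv`, `col_inv_self`, `col_inv_ne` : the column relations for a character `μ` of `B` fixed by the normalizer
* `delta_multi` : nearly constant multiplicities for every `μ`
-/

set_option autoImplicit false
set_option linter.unusedSectionVars false

namespace Cfsg.Agent.H417.TorMulti

open Cfsg Finset Cfsg.Agent.Characters.Core Cfsg.Agent.Characters.Linear Cfsg.Agent.H417.TorDual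
  Cfsg.Agent.H417.TorRow Cfsg.Agent.H417.TorCol Cfsg.Agent.H417.TorInt Cfsg.Agent.H417.TorMain
open scoped ComplexConjugate Classical BigOperators

/-- **The integer lemma, several vectors.** -/
theorem near_multi {ι κ : Type*} [Fintype ι] [Fintype κ] (m : κ → ι → ℤ) (e : ℕ) (t : ℕ) (ht : Fintype.card ι = t)
    (h : (t : ℤ) * ∑ μ, ∑ i, m μ i ^ 2 - ∑ μ, (∑ i, m μ i) ^ 2 ≤ e * t) (hte : 4 * e ^ 2 < t) :
    ∃ k : κ → ℤ, ∑ μ, ∑ i, (m μ i - k μ) ^ 2 ≤ e := by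
  have ht0 : (0 : ℤ) < t := by
    have : 0 < t := by omega
    exact_mod_cast this
  have hk : ∀ μ, ∃ k : ℤ, 2 * (∑ i, m μ i - k * t) ≤ t ∧ -(t : ℤ) ≤ 2 * (∑ i, m μ i - k * t) := by
    intro μ
    set S := ∑ i, m μ i
    refine ⟨(2 * S + t) / (2 * t), ?_, ?_⟩
    · have h1 := Int.lt_ediv_add_one_mul_self (2 * S + t) (by linarith : (0 : ℤ) < 2 * t)
      linarith
    · have h1 := Int.ediv_mul_le (2 * S + t) (by linarith : (2 * (t : ℤ)) ≠ 0)
      linarith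
  choose k hk1 hk2 using hk
  refine ⟨k, ?_⟩
  set x : κ → ℤ := fun μ => ∑ i, (m μ i - k μ) ^ 2 with hx
  set y : κ → ℤ := fun μ => ∑ i, (m μ i - k μ) with hy
  have hyS : ∀ μ, y μ = ∑ i, m μ i - k μ * t := by
    intro μ
    rw [hy]
    simp only
    rw [Finset.sum_sub_distrib, Finset.sum_const, Finset.card_univ, ht, nsmul_eq_mul]; ring
  have hxS : ∀ μ, x μ = ∑ i, m μ i ^ 2 - 2 * k μ * (∑ i, m μ i) + t * k μ ^ 2 := by
    intro μ
    rw [hx]
    simp only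
    have h1 : ∀ i, (m μ i - k μ) ^ 2 = m μ i ^ 2 - 2 * k μ * m μ i + k μ ^ 2 := fun i => by ring
    rw [Finset.sum_congr rfl fun i _ => h1 i, Finset.sum_add_distrib, Finset.sum_sub_distrib, ← Finset.mul_sum,
      Finset.sum_const, Finset.card_univ, ht, nsmul_eq_mul]
  have hxy : ∀ μ, |y μ| ≤ x μ := fun μ => abs_sum_le fun i => m μ i - k μ
  have hyt : ∀ μ, 2 * |y μ| ≤ t := by
    intro μ
    have h1 := hk1 μ
    have h2 := hk2 μ
    rw [← hyS] at h1 h2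
    rcases abs_cases (y μ) with ⟨h3, _⟩ | ⟨h3, _⟩ <;> rw [h3] <;> linarith
  have hV : (t : ℤ) * ∑ μ, x μ - ∑ μ, y μ ^ 2 ≤ e * t := by
    refine le_trans (le_of_eq ?_) h
    rw [Finset.mul_sum, Finset.mul_sum, ← Finset.sum_sub_distrib, ← Finset.sum_sub_distrib]
    refine Finset.sum_congr rfl fun μ _ => ?_
    rw [hxS, hyS]
    ring
  have hx0 : ∀ μ, 0 ≤ x μ := fun μ => (abs_nonneg _).trans (hxy μ)
  have h1 : ∀ μ, 2 * y μ ^ 2 ≤ t * x μ := by
    intro μ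
    rw [← sq_abs]
    nlinarith [hxy μ, hyt μ, abs_nonneg (y μ)]
  have h2 : 2 * ∑ μ, y μ ^ 2 ≤ t * ∑ μ, x μ := by
    rw [Finset.mul_sum, Finset.mul_sum]
    exact Finset.sum_le_sum fun μ _ => h1 μ
  set X := ∑ μ, x μ with hX
  have h3 : X ≤ 2 * e := by
    have h4 : (t : ℤ) * X ≤ t * (2 * e) := by linarith
    exact le_of_mul_le_mul_left h4 ht0
  have h4 : ∑ μ, y μ ^ 2 ≤ X ^ 2 := by
    calc ∑ μ, y μ ^ 2 ≤ ∑ μ, x μ * X := by
          refine Finset.sum_le_sum fun μ _ => ?_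
          rw [← sq_abs]
          have h5 : x μ ≤ X := Finset.single_le_sum (fun μ _ => hx0 μ) (Finset.mem_univ μ)
          nlinarith [hxy μ, abs_nonneg (y μ), hx0 μ]
      _ = X ^ 2 := by rw [← Finset.sum_mul, sq]
  have hX0 : 0 ≤ X := Finset.sum_nonneg fun μ _ => hx0 μ
  have h5 : X ^ 2 ≤ 4 * e ^ 2 := by nlinarith
  have h6 : (4 : ℤ) * e ^ 2 < t := by exact_mod_cast hte
  by_contra hcon
  push Not at hcon
  have h7 : (e : ℤ) + 1 ≤ X := hcon
  nlinarith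

universe u v w

variable {G : Type u} [Group G] {A : Type v} {B : Type w} [CommGroup A] [CommGroup B]
variable {φ : A × B →* G} [Fintype G] [Fintype A] [Fintype B]

theorem tst_pow_inv (θ : A →* ℂˣ) {μ : B →* ℂˣ} {x : G} (hμ : μ ^ kap φ x = μ) (y : A × B) :
    tst θ μ (y ^ kap φ x) = tst (θ ^ kap φ x) μ y := by
  have h1 : μ (y.2 ^ kap φ x) = μ y.2 := by
    have h2 := DFunLike.congr_fun hμ y.2
    rwa [MonoidHom.pow_apply, ← map_pow] at h2
  rw [tst, tst, Prod.pow_fst, Prod.pow_snd, h1, map_pow, MonoidHom.pow_apply]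

/-- the column relation, `μ` invariant -/
theorem col_inv (hT : Tor φ) [Fintype (IrrCharacter G)] {θ θ' : A →* ℂˣ} (hθ : θ ≠ 1) (hθ' : θ' ≠ 1)
    {μ : B →* ℂˣ} (hμ : ∀ x ∈ NT φ, μ ^ kap φ x = μ) :
    ((Nat.card A * Nat.card B : ℕ) : ℤ) * ∑ χ : IrrCharacter G, dif φ χ θ μ * dif φ χ θ' μ =
      Nat.card (NT φ) + ((nset φ).filter fun x => θ ^ kap φ x = θ').card := by
  have h1 := hT.col_sum (tst θ μ) (tst θ' μ) (fun y hy => by rw [tst, hy]; simp) (fun y hy => by rw [tst, hy]; simp)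
  have h2 : ∀ χ : IrrCharacter G, (∑ y, (χ : G → ℂ) (φ y) * conj (tst θ μ y)) *
      conj (∑ y, (χ : G → ℂ) (φ y) * conj (tst θ' μ y)) =
      ((Nat.card A * Nat.card B : ℕ) : ℂ) ^ 2 * ((dif φ χ θ μ * dif φ χ θ' μ : ℤ) : ℂ) := by
    intro χ
    have hχ := isIrr_isCharacter χ.2
    rw [sum_tst hχ, sum_tst hχ, map_mul]
    have h3 : conj ((dif φ χ θ' μ : ℤ) : ℂ) = ((dif φ χ θ' μ : ℤ) : ℂ) := map_intCast _ _
    have h4 : conj ((Nat.card A * Nat.card B : ℕ) : ℂ) = ((Nat.card A * Nat.card B : ℕ) : ℂ) := map_natCast _ _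
    rw [h3, h4]
    push_cast
    ring
  rw [Finset.sum_congr rfl fun χ _ => h2 χ, ← Finset.mul_sum] at h1
  have h3 : ∑ x ∈ univ.filter (fun x => x ∈ NT φ), ∑ y, tst θ' μ y * conj (tst θ μ (y ^ kap φ x)) =
      ∑ x ∈ nset φ, ((Nat.card A * Nat.card B : ℕ) : ℂ) * ((if θ ^ kap φ x = θ' then 1 else 0) + 1) := by
    refine Finset.sum_congr rfl fun x hx => ?_
    have hx' : x ∈ NT φ := (Finset.mem_filter.1 hx).2
    rw [Finset.sum_congr rfl fun y _ => by rw [tst_pow_inv θ (hμ x hx')]]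
    exact sum_tst_tst hθ' (theta_pow_ne hT hx' hθ) μ
  rw [h3, ← Finset.mul_sum, Finset.sum_add_distrib, Finset.sum_boole, Finset.sum_const, card_nset, nsmul_eq_mul,
    mul_one, sq, mul_assoc] at h1
  have h0 : ((Nat.card A * Nat.card B : ℕ) : ℂ) ≠ 0 := by
    rw [← Nat.card_prod]; exact card_ne_zero_complex
  have h4 := mul_left_cancel₀ h0 h1
  rw [add_comm] at h4
  exact_mod_cast h4

theorem col_inv_self (hT : Tor φ) [Fintype (IrrCharacter G)] {e : ℕ}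
    (he : Nat.card (NT φ) = e * (Nat.card A * Nat.card B)) {θ : A →* ℂˣ} (hθ : θ ≠ 1) {μ : B →* ℂˣ}
    (hμ : ∀ x ∈ NT φ, μ ^ kap φ x = μ) : ∑ χ : IrrCharacter G, dif φ χ θ μ ^ 2 = e + 1 := by
  have h1 := col_inv hT hθ hθ hμ
  have h2 : ((nset φ).filter fun x => θ ^ kap φ x = θ).card = Nat.card A * Nat.card B := by
    refine le_antisymm (fiber_le hT hθ θ) ?_
    have := le_fiber hT (θ := θ) (one_mem (NT φ))
    rwa [kap_range hT (one_mem _)] at this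
  rw [h2, he] at h1
  have hAB : ((Nat.card A * Nat.card B : ℕ) : ℤ) ≠ 0 := by
    have : 0 < Nat.card A * Nat.card B := Nat.mul_pos Nat.card_pos Nat.card_pos
    exact_mod_cast this.ne'
  refine mul_left_cancel₀ hAB ?_
  simp only [sq]
  rw [h1]
  push_cast
  ring

theorem col_inv_ne (hT : Tor φ) [Fintype (IrrCharacter G)] [Fintype (A →* ℂˣ)] {e : ℕ}
    (he : Nat.card (NT φ) = e * (Nat.card A * Nat.card B)) {θ θ' : A →* ℂˣ} (hθ : θ ≠ 1) (hθ' : θ' ≠ 1)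
    (h : θ' ∉ orb φ θ) {μ : B →* ℂˣ} (hμ : ∀ x ∈ NT φ, μ ^ kap φ x = μ) :
    ∑ χ : IrrCharacter G, dif φ χ θ μ * dif φ χ θ' μ = e := by
  have h1 := col_inv hT hθ hθ' hμ
  have h2 : ((nset φ).filter fun x => θ ^ kap φ x = θ').card = 0 := by
    rw [Finset.card_eq_zero, Finset.filter_eq_empty_iff]
    intro x hx hx'
    exact h (mem_orb.2 ⟨x, mem_nset.1 hx, hx'⟩)
  rw [h2, he] at h1
  have hAB : ((Nat.card A * Nat.card B : ℕ) : ℤ) ≠ 0 := by
    have : 0 < Nat.card A * Nat.card B := Nat.mul_pos Nat.card_pos Nat.card_pos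
    exact_mod_cast this.ne'
  refine mul_left_cancel₀ hAB ?_
  rw [h1]
  push_cast
  ring

/-- **Nearly constant multiplicities, all `μ`.** -/
theorem delta_multi [Fintype (A →* ℂˣ)] [Fintype (B →* ℂˣ)] (hT : Tor φ) {e : ℕ}
    (he : Nat.card (NT φ) = e * (Nat.card A * Nat.card B)) {χ : G → ℂ} (hχ : IsIrrCharacter G χ)
    (ht : 4 * e ^ 2 < Nat.card A) :
    ∃ k : (B →* ℂˣ) → ℤ, ∑ μ, ∑ θ, (mul φ χ θ μ - k μ) ^ 2 ≤ e ∧
      χ 1 = (((∑ μ, k μ) * Nat.card A + ∑ μ, ∑ θ, (mul φ χ θ μ - k μ) : ℤ) : ℂ) := by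
  have hcard : Fintype.card (A →* ℂˣ) = Nat.card A := by
    rw [← Nat.card_eq_fintype_card]; exact CommGroup.card_monoidHom_of_hasEnoughRootsOfUnity A ℂ
  obtain ⟨k, hk⟩ := near_multi (fun (μ : B →* ℂˣ) (θ : A →* ℂˣ) => mul φ χ θ μ) e (Nat.card A) hcard (hT.row hχ he) ht
  refine ⟨k, hk, ?_⟩
  rw [degree_eq (φ := φ) (isIrr_isCharacter hχ)]
  congr 1
  rw [Finset.sum_mul, ← Finset.sum_add_distrib]
  refine Finset.sum_congr rfl fun μ _ => ?_
  rw [Finset.sum_sub_distrib, Finset.sum_const, Finset.card_univ, hcard]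
  simp
  ring

end Cfsg.Agent.H417.TorMulti
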